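import Mathlib
import Cfsg.Agent.Zel.PI.Cnt
import Cfsg.Agent.Zel.PI.Jac
import Cfsg.Agent.Zel.PI.Quot

/-!
# Zelmanov's theorem, associative form
-/

set_option autoImplicit false

universe u

namespace Cfsg.Agent.Zel.PI

theorem zBox : ZBox.{u} :=
  zBox_of_core fun F A _ _ _ _ d x g h hn hP => core jacBox F A d x g h hn hP

end Cfsg.Agent.Zel.PI
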