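import Mathlib
import Cfsg.Agent.Zel.PI.W

/-!
# Just infinite graded algebras; a shift of degrees is impossible when the commutators are nilpotent
-/

set_option autoImplicit false

universe u

namespace Cfsg.Agent.Zel.PI

open Submodule

section

variable {F A α : Type*} [Field F] [Ring A] [Algebra F A]

/-- just infinite: no `W n` vanishes, and every non-zero graded ideal contains some `W n` -/
structure IsJI (F : Type*) [Field F] [Algebra F A] (x : α → A) : Prop where
  ne : ∀ n, W F x n ≠ ⊥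
  ji : ∀ I : ℕ → Submodule F A, (∀ n, I n ≤ W F x n) →
    (∀ n i a, a ∈ I n → x i * a ∈ I (n + 1)) → (∀ n i a, a ∈ I n → a * x i ∈ I (n + 1)) →
    (∃ n, I n ≠ ⊥) → ∃ n, W F x n ≤ I n

variable {x : α → A}

theorem IsJI.shift (h : IsJI F x) (s : ℕ) (I : ℕ → Submodule F A) (h1 : ∀ n, I n ≤ W F x (n + s))
    (h2 : ∀ n i a, a ∈ I n → x i * a ∈ I (n + 1)) (h3 : ∀ n i a, a ∈ I n → a * x i ∈ I (n + 1))
    (h4 : ∃ n, I n ≠ ⊥) : ∃ M, ∀ n, M ≤ n → W F x (n + s) ≤ I n := by
  have key : ∃ m, W F x m ≤ (if s ≤ m then I (m - s) else ⊥) := by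
    refine h.ji (fun m => if s ≤ m then I (m - s) else ⊥) ?_ ?_ ?_ ?_
    · intro m
      split_ifs with hm
      · have := h1 (m - s)
        rwa [Nat.sub_add_cancel hm] at this
      · exact bot_le
    · intro m i a ha
      split_ifs at ha with hm
      · rw [if_pos (by omega), Nat.succ_sub hm]
        exact h2 _ _ _ ha
      · rw [(mem_bot F).1 ha, mul_zero]
        exact zero_mem _
    · intro m i a ha
      split_ifs at ha with hm
      · rw [if_pos (by omega), Nat.succ_sub hm]
        exact h3 _ _ _ ha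
      · rw [(mem_bot F).1 ha, zero_mul]
        exact zero_mem _
    · obtain ⟨n, hn⟩ := h4
      exact ⟨n + s, by simpa using hn⟩
  obtain ⟨m, hm⟩ := key
  split_ifs at hm with hs
  · refine ⟨m - s, fun n hn => ?_⟩
    induction n, hn using Nat.le_induction with
    | base => rwa [Nat.sub_add_cancel hs]
    | succ n hn ih =>
      rw [Nat.add_right_comm]
      exact W_succ_le fun i b hb => h2 _ _ _ (ih hb)
  · exact absurd (le_bot_iff.1 hm) (h.ne m)

theorem IsJI.exists_ne (h : IsJI F x) (n : ℕ) : ∃ a ∈ W F x n, a ≠ 0 :=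
  (Submodule.ne_bot_iff _).1 (h.ne n)

theorem IsJI.ann1 (h : IsJI F x) (g : Gr F x) {a : A} (ha : ∀ i, a * x i = 0) : a = 0 := by
  let I : ℕ → Submodule F A := fun n =>
    W F x n ⊓ ⨅ i, LinearMap.ker (LinearMap.mulRight F (x i))
  have hI : ∀ n b, b ∈ I n ↔ b ∈ W F x n ∧ ∀ i, b * x i = 0 := by
    intro n b
    simp [I]
  have key : ∀ n, I n = ⊥ := by
    by_contra hne
    push Not at hne
    obtain ⟨n, hn⟩ := h.ji I (fun n => inf_le_left) (fun n i b hb => by
      rw [hI] at hb ⊢
      exact ⟨mul_mem_W' (x_mem_W i) hb.1 (add_comm _ _), fun j => by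
        rw [mul_assoc, hb.2, mul_zero]⟩) (fun n i b hb => by
      rw [hI] at hb
      rw [hb.2]
      exact zero_mem _) hne
    apply h.ne (n + 1)
    rw [← le_bot_iff]
    refine W_add_le fun b hb c hc => ?_
    refine W_ind (P := fun c => b * c ∈ (⊥ : Submodule F A)) hc ?_ (by simp) ?_ ?_
    · intro w hw
      obtain ⟨i, rfl⟩ := List.length_eq_one_iff.1 hw
      simpa using ((hI _ _).1 (hn hb)).2 i
    · intro a b h1 h2
      rw [mul_add]; exact add_mem h1 h2
    · intro c a h
      rw [mul_smul_comm]; exact smul_mem _ _ h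
  refine g.eq_zero fun n => ?_
  have : g.p n a ∈ I n := (hI _ _).2 ⟨g.p_mem _ _, fun i => by rw [← g.p_mul_x, ha, map_zero]⟩
  rwa [key, mem_bot] at this

theorem IsJI.ann (h : IsJI F x) (g : Gr F x) (M : ℕ) {a : A}
    (ha : ∀ w : List α, w.length = M → a * wd x w = 0) : a = 0 := by
  induction M generalizing a with
  | zero => simpa using ha [] rfl
  | succ M ih =>
    refine h.ann1 g fun i => ih fun w hw => ?_
    rw [mul_assoc, ← wd_cons]
    exact ha _ (by simp [hw])

/-- the graph of a bijection that commutes with left multiplication and changes the degree -/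
def Shift (F : Type*) [Field F] [Algebra F A] (x : α → A) : Prop :=
  ∃ (s s' M : ℕ) (G : ℕ → Submodule F (A × A)), s' < s ∧
    (∀ n, ∀ y ∈ G n, y.1 ∈ W F x (n + s) ∧ y.2 ∈ W F x (n + s')) ∧
    (∀ n i, ∀ y ∈ G n, (x i * y.1, x i * y.2) ∈ G (n + 1)) ∧
    (∀ n, ∀ y ∈ G n, y.2 = 0 → y.1 = 0) ∧ (∀ n, ∀ y ∈ G n, y.1 = 0 → y.2 = 0) ∧
    ∀ n, M ≤ n → ∀ u ∈ W F x (n + s), ∃ a, (u, a) ∈ G n

theorem map_cm {B : Type*} [Ring B] (φ : A →+* B) (t : FreeMagma α) :
    φ (cm x t) = cm (fun i => φ (x i)) t := by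
  induction t with
  | ih1 a => rfl
  | ih2 s t hs ht => rw [cm_mul, cm_mul, map_sub, map_mul, map_mul, hs, ht]

theorem map_wd {B : Type*} [Ring B] (φ : A →+* B) (w : List α) :
    φ (wd x w) = wd (fun i => φ (x i)) w := by
  induction w with
  | nil => simp
  | cons a w ih => simp [ih]

end

/-- Jacobson's theorem for the commutators in the generators -/
theorem JacBox.wd_eq_zero (hJ : JacBox.{u}) {F : Type} {A : Type u} {α : Type*} [Field F] [Ring A]
    [Algebra F A] {x : α → A} (hn : ∀ t, IsNilpotent (cm x t))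
    (hf : FiniteDimensional F (span F (Set.range (cm x)))) :
    ∃ K, ∀ w : List α, K ≤ w.length → wd x w = 0 := by
  obtain ⟨K, hK⟩ := hJ F A (Set.range (cm x)) (by
    rintro _ ⟨s, rfl⟩ _ ⟨t, rfl⟩
    exact ⟨s * t, cm_mul x s t⟩) (by
    rintro _ ⟨s, rfl⟩
    exact hn s) hf
  refine ⟨K, fun w hw => hK (w.map x) ?_ (by simpa using hw)⟩
  intro a ha
  obtain ⟨i, -, rfl⟩ := List.mem_map.1 ha
  exact ⟨FreeMagma.of i, rfl⟩

theorem not_shift (hJ : JacBox.{u}) {F : Type} {A : Type u} {α : Type*} [Finite α] [Field F]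
    [Ring A] [Algebra F A] {x : α → A} (g : Gr F x) (h : IsJI F x)
    (hn : ∀ t, IsNilpotent (cm x t)) : ¬ Shift F x := by
  classical
  rintro ⟨s, s', M, G, hs, hW, hl, h1, h2, hsur⟩
  let D : A × A →ₗ[F] A := LinearMap.fst F A A - LinearMap.snd F A A
  have hD : ∀ y, D y = y.1 - y.2 := fun y => rfl
  let N₀ : Submodule F A := ⨆ n, (G n).map D
  have hN₀ : ∀ n, ∀ y ∈ G n, y.1 - y.2 ∈ N₀ := fun n y hy =>
    mem_iSup_of_mem n (mem_map_of_mem (f := D) hy)
  have hx : ∀ i, ∀ z ∈ N₀, x i * z ∈ N₀ := by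
    intro i z hz
    induction hz using iSup_induction' with
    | mem n z hz =>
      obtain ⟨y, hy, rfl⟩ := hz
      rw [hD, mul_sub]
      exact hN₀ _ _ (hl n i y hy)
    | zero => simp
    | add a b _ _ ha hb => rw [mul_add]; exact add_mem ha hb
  have hA : ∀ a, ∀ z ∈ N₀, a * z ∈ N₀ := by
    intro a
    refine g.ind (P := fun a => ∀ z ∈ N₀, a * z ∈ N₀) ?_ (by simp) ?_ ?_ a
    · intro w
      induction w with
      | nil => simp
      | cons i w ih =>
        intro z hz
        rw [wd_cons, mul_assoc]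
        exact hx _ _ (ih z hz)
    · intro a b ha hb z hz
      rw [add_mul]; exact add_mem (ha z hz) (hb z hz)
    · intro c a ha z hz
      rw [smul_mul_assoc]; exact smul_mem _ _ (ha z hz)
  -- no homogeneous elements
  have hhom : ∀ m, ∀ z ∈ N₀, z ∈ W F x m → z = 0 := by
    intro m z hz hzm
    obtain ⟨f, hf, hfz⟩ := (mem_iSup_iff_exists_finsupp _ _).1 hz
    choose y hy hyf using hf
    by_contra hz0
    have hne : f.support.Nonempty := by
      rw [Finsupp.support_nonempty_iff]
      rintro rfl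
      exact hz0 (by simpa using hfz.symm)
    have hz' : z = ∑ n ∈ f.support, ((y n).1 - (y n).2) := by
      rw [← hfz, Finsupp.sum]
      exact Finset.sum_congr rfl fun n _ => (hyf n).symm
    have e0 : g.p (f.support.min' hne + s') z = - (y (f.support.min' hne)).2 := by
      conv_lhs => rw [hz']
      rw [map_sum, Finset.sum_eq_single_of_mem _ (Finset.min'_mem _ hne), map_sub,
        g.p_ne (hW _ _ (hy _)).1 (by omega), g.p_self (hW _ _ (hy _)).2, zero_sub]
      intro n hn hne'
      have := Finset.min'_le _ _ hn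
      rw [map_sub, g.p_ne (hW _ _ (hy _)).1 (by omega), g.p_ne (hW _ _ (hy _)).2 (by omega),
        sub_zero]
    have e1 : g.p (f.support.max' hne + s) z = (y (f.support.max' hne)).1 := by
      conv_lhs => rw [hz']
      rw [map_sum, Finset.sum_eq_single_of_mem _ (Finset.max'_mem _ hne), map_sub,
        g.p_ne (hW _ _ (hy _)).2 (by omega), g.p_self (hW _ _ (hy _)).1, sub_zero]
      intro n hn hne'
      have := Finset.le_max' _ _ hn
      rw [map_sub, g.p_ne (hW _ _ (hy _)).1 (by omega), g.p_ne (hW _ _ (hy _)).2 (by omega),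
        sub_zero]
    have hle := Finset.min'_le_max' _ hne
    have hy0 : ∀ n ∈ f.support, (y n).1 ≠ 0 ∧ (y n).2 ≠ 0 := by
      intro n hn
      rw [Finsupp.mem_support_iff, ← hyf, hD] at hn
      constructor
      · intro e
        exact hn (by rw [e, h2 _ _ (hy n) e, sub_zero])
      · intro e
        exact hn (by rw [e, h1 _ _ (hy n) e, sub_zero])
    by_cases hm : m = f.support.min' hne + s'
    · rw [g.p_ne hzm (by omega)] at e1
      exact (hy0 _ (Finset.max'_mem _ hne)).1 e1.symm
    · rw [g.p_ne hzm hm] at e0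
      exact (hy0 _ (Finset.min'_mem _ hne)).2 (neg_eq_zero.1 e0.symm)
  -- finite codimension
  have hco : ∀ k, W F x k ≤ N₀ ⊔ U F x (M + s) := by
    intro k
    induction k using Nat.strong_induction_on with
    | _ k ih =>
      by_cases hk : k < M + s
      · exact (W_le_U hk).trans le_sup_right
      · intro u hu
        obtain ⟨n, rfl⟩ : ∃ n, k = n + s := ⟨k - s, by omega⟩
        obtain ⟨a, ha⟩ := hsur n (by omega) u hu
        have : u = (u - a) + a := by abel
        rw [this]
        exact add_mem (mem_sup_left (hN₀ _ _ ha)) (ih (n + s') (by omega) (hW _ _ ha).2)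
  let N : Submodule A A :=
    { carrier := N₀
      add_mem' := fun ha hb => add_mem ha hb
      zero_mem' := zero_mem _
      smul_mem' := fun a z hz => hA a z hz }
  have := U_fd (F := F) (x := x) (M + s)
  have hfd : FiniteDimensional F (A ⧸ N) := by
    refine Module.Finite.of_surjective
      ((N.mkQ.restrictScalars F).comp (U F x (M + s)).subtype) fun q => ?_
    obtain ⟨a, rfl⟩ := N.mkQ_surjective q
    have ha : a ∈ N₀ ⊔ U F x (M + s) := by
      refine g.ind (P := fun a => a ∈ N₀ ⊔ U F x (M + s)) (fun w => hco _ (wd_mem_W rfl))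
        (zero_mem _) (fun _ _ => add_mem) (fun c _ => smul_mem _ c) a
    obtain ⟨b, hb, c, hc, rfl⟩ := mem_sup.1 ha
    refine ⟨⟨c, hc⟩, ?_⟩
    have hb' : N.mkQ b = 0 := (Submodule.Quotient.mk_eq_zero N).2 hb
    simp only [LinearMap.comp_apply, subtype_apply, LinearMap.restrictScalars_apply, map_add, hb',
      zero_add]
  let ρ : A →ₐ[F] Module.End F (A ⧸ N) := Algebra.lsmul F F (A ⧸ N)
  obtain ⟨K, hK⟩ := hJ.wd_eq_zero (F := F) (x := fun i => ρ (x i))
    (fun t => by
      have := (hn t).map ρ.toRingHom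
      rwa [map_cm] at this) inferInstance
  apply h.ne K
  rw [← le_bot_iff]
  refine W_le fun w hw => ?_
  have e := hK w hw.ge
  have e' : ρ (wd x w) = 0 := by
    rw [← e]
    exact map_wd ρ.toRingHom w
  have e2 : wd x w • (Submodule.Quotient.mk 1 : A ⧸ N) = 0 := by
    have := congrArg (fun φ : Module.End F (A ⧸ N) => φ (Submodule.Quotient.mk 1)) e'
    simpa [ρ] using this
  rw [← Submodule.Quotient.mk_smul, Submodule.Quotient.mk_eq_zero, smul_eq_mul, mul_one] at e2
  exact (mem_bot F).2 (hhom K _ e2 (wd_mem_W hw))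

end Cfsg.Agent.Zel.PI
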